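import Mathlib
import Cfsg.Agent.Lib.Helper70.HH.S3786Defs2
import Cfsg.Agent.Lib.Helper87.PGroupFrattini

/-!
# S3786, package (H3) `LemDstar` (helper86)

An element of `Q` that is central modulo the kernel on every piece lies in `Φ(Q)`:
`lemDstar (hE : LemPieceExists) (hC : LemPieceConj) (hS : LemCenSub) : LemDstar`.
-/

set_option autoImplicit false

namespace Cfsg.Agent.Lib.Helper86.HH86

open Module Cfsg.Agent.Lib.Helper70.HH89 Cfsg.Agent.Lib.Helper70.HH86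

universe u v w

/-- Package (H3) of S3786. -/
theorem lemDstar (hE : LemPieceExists.{u, v, w}) (hC : LemPieceConj.{u, v, w})
    (hS : LemCenSub.{u, v, w}) : LemDstar.{u, v, w} := by
  intro p q n _ _ F _ _ _ H _ _ V _ _ _ ρ T Q z W hctx hnonab hminT a haQ haD
  classical
  -- commutators of `Q` are central in `Q`
  have hcomm : ∀ a ∈ Q, ∀ b ∈ Q, ∀ d ∈ Q,
      (a * b * a⁻¹ * b⁻¹) * d = d * (a * b * a⁻¹ * b⁻¹) := by
    intro a ha b hb d hd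
    have h1 := Cfsg.Agent.Lib.Helper87.comm_mem_frattini hctx.hQ (⟨a, ha⟩ : Q) ⟨b, hb⟩
    have h2 : a * b * a⁻¹ * b⁻¹ ∈ frat Q := ⟨_, h1, rfl⟩
    exact hctx.hcent _ h2 d hd
  -- the subgroup `D*`
  let Ds : Subgroup H :=
    { carrier := {x | x ∈ Q ∧ ∀ U, IsPiece ρ Q W U → CenOn ρ Q U x}
      mul_mem' := by
        rintro x y ⟨hx, hx2⟩ ⟨hy, hy2⟩
        refine ⟨Q.mul_mem hx hy, fun U hU => ?_⟩
        obtain ⟨N, hN⟩ := hS ρ Q U hU.2.2.1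
        exact (hN _).1 (N.mul_mem ((hN x).2 (hx2 U hU)) ((hN y).2 (hy2 U hU)))
      one_mem' := by
        refine ⟨Q.one_mem, fun U hU => ?_⟩
        obtain ⟨N, hN⟩ := hS ρ Q U hU.2.2.1
        exact (hN _).1 N.one_mem
      inv_mem' := by
        rintro x ⟨hx, hx2⟩
        refine ⟨Q.inv_mem hx, fun U hU => ?_⟩
        obtain ⟨N, hN⟩ := hS ρ Q U hU.2.2.1
        exact (hN _).1 (N.inv_mem ((hN x).2 (hx2 U hU))) }
  have hDs : ∀ x, x ∈ Ds ↔ (x ∈ Q ∧ ∀ U, IsPiece ρ Q W U → CenOn ρ Q U x) := fun x => Iff.rfl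
  have hDsQ : Ds ≤ Q := fun x hx => ((hDs x).1 hx).1
  -- `D*` is proper
  have hDsne : Ds ≠ Q := by
    obtain ⟨U, hU⟩ := hE ρ Q W hctx.hW0 hctx.hWQ hcomm
    obtain ⟨x, hx, y, hy, u, hu, hne⟩ := hnonab U hU.1 hU.2.1 hU.2.2.1
    intro h
    have hxD : x ∈ Ds := by rw [h]; exact hx
    have h1 := ((hDs x).1 hxD).2 U hU
    exact hne (h1.2 y hy u hu)
  -- `D*` is `T`-invariant
  have hDsT : ∀ b ∈ T, ∀ g ∈ Ds, b * g * b⁻¹ ∈ Ds := by
    intro b hb g hg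
    obtain ⟨hgQ, hg2⟩ := (hDs g).1 hg
    rw [hDs]
    refine ⟨hctx.hTQ b hb g hgQ, fun U hU => ?_⟩
    have hbi : b⁻¹ ∈ T := T.inv_mem hb
    have hU' : IsPiece ρ Q W (U.map (ρ b⁻¹)) := by
      refine hC ρ Q W U b⁻¹ (fun x hx => hctx.hTQ b⁻¹ hbi x hx) (fun x hx => ?_)
        (hctx.hWT b⁻¹ hbi) ?_ hU
      · have h := hctx.hTQ b hb x hx
        rwa [inv_inv]
      · have h := hctx.hWT b hb
        rwa [inv_inv]
    have h1 := hg2 _ hU'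
    refine ⟨hctx.hTQ b hb g hgQ, fun c hc w hw => ?_⟩
    have hc' : b⁻¹ * c * b ∈ Q := by
      have h := hctx.hTQ b⁻¹ hbi c hc
      rwa [inv_inv] at h
    have hw' : ρ b⁻¹ w ∈ U.map (ρ b⁻¹) := Submodule.mem_map_of_mem hw
    have h2 := h1.2 (b⁻¹ * c * b) hc' (ρ b⁻¹ w) hw'
    have e1 : ρ (b * g * b⁻¹ * c) w = ρ b (ρ (g * (b⁻¹ * c * b)) (ρ b⁻¹ w)) := by
      rw [← Module.End.mul_apply, ← Module.End.mul_apply, ← map_mul, ← map_mul]
      congr 2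
      group
    have e2 : ρ (c * (b * g * b⁻¹)) w = ρ b (ρ ((b⁻¹ * c * b) * g) (ρ b⁻¹ w)) := by
      rw [← Module.End.mul_apply, ← Module.End.mul_apply, ← map_mul, ← map_mul]
      congr 2
      group
    rw [e1, e2, h2]
  have hle := hminT Ds hDsQ hDsne hDsT
  exact hle ((hDs a).2 ⟨haQ, haD⟩)

end Cfsg.Agent.Lib.Helper86.HH86
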